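import Cfsg.Agent.Lib.SuzOv.Group
import Mathlib

/-!
# The symplectic form of the Suzuki group
-/

set_option autoImplicit false
set_option linter.unusedSimpArgs false
set_option linter.unusedVariables false

namespace Cfsg.Agent.Lib.SuzOv

open Matrix Cfsg
open scoped MatrixGroups Pointwise

variable {F : Type*} [Field F] {m : ℕ} [Fintype F] (S : SH F m)

/-- Isometry of the form. -/
def IsIso (g : Matrix (Fin 4) (Fin 4) F) : Prop := g.transpose * Cfsg.suzukiForm F * g = Cfsg.suzukiForm F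

omit [Fintype F] in
lemma IsIso.mul {g h : Matrix (Fin 4) (Fin 4) F} (hg : IsIso g) (hh : IsIso h) : IsIso (g * h) := by
  unfold IsIso at *
  calc (g * h).transpose * Cfsg.suzukiForm F * (g * h)
      = h.transpose * (g.transpose * Cfsg.suzukiForm F * g) * h := by
        rw [Matrix.transpose_mul]
        simp only [Matrix.mul_assoc]
    _ = _ := by rw [hg, hh]

include S

lemma T_iso (a b : F) : IsIso (TM m a b) := by
  have h2 := S.two
  unfold IsIso
  simp only [TM, Cfsg.suzukiForm]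
  generalize cs (2 ^ (m + 1)) a b = c
  generalize a ^ (2 ^ (m + 1)) = X
  ext i j
  fin_cases i <;> fin_cases j <;> simp [Matrix.mul_apply, Fin.sum_univ_four] <;> grind

omit S in
lemma H_iso (A : Fˣ) : IsIso (diagonal (dg m A)) := by
  unfold IsIso
  have hI : (A : F) * ((A⁻¹ : Fˣ) : F) = 1 := by simp
  have hI2 : ((A⁻¹ : Fˣ) : F) * (A : F) = 1 := by simp
  simp only [dg, Cfsg.suzukiForm, Matrix.diagonal_transpose]
  have hp : ∀ k : ℕ, (A : F) ^ k * ((A⁻¹ : Fˣ) : F) ^ k = 1 := by
    intro k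
    rw [← mul_pow, hI, one_pow]
  have hp' : ∀ k : ℕ, ((A⁻¹ : Fˣ) : F) ^ k * (A : F) ^ k = 1 := by
    intro k
    rw [← mul_pow, hI2, one_pow]
  ext i j
  rw [Matrix.mul_diagonal, Matrix.diagonal_mul]
  fin_cases i <;> fin_cases j <;> simp [-Units.val_inv_eq_inv_val, hp, hp', mul_comm, mul_assoc, mul_left_comm]

omit S in
lemma W_iso : IsIso (WM : Matrix (Fin 4) (Fin 4) F) := by
  unfold IsIso
  simp only [WM, Cfsg.suzukiForm]
  ext i j
  fin_cases i <;> fin_cases j <;> simp [Matrix.mul_apply, Fin.sum_univ_four]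

/-- Every element of the Suzuki group preserves the form. -/
theorem iso_of_mem (g : SL(4, F)) (hg : g ∈ Cfsg.Sz F m) : IsIso (g : Matrix (Fin 4) (Fin 4) F) := by
  rcases bruhat S g hg with ⟨a, b, A, rfl⟩ | ⟨a, b, a', b', A, rfl⟩
  · rw [Matrix.SpecialLinearGroup.coe_mul]
    exact (T_iso S a b).mul (H_iso A)
  · rw [Matrix.SpecialLinearGroup.coe_mul, Matrix.SpecialLinearGroup.coe_mul, Matrix.SpecialLinearGroup.coe_mul]
    exact ((T_iso S a b).mul W_iso).mul ((T_iso S a' b').mul (H_iso A))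

end Cfsg.Agent.Lib.SuzOv
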