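import Cfsg.Agent.Lib.SuzOv.Local
import Mathlib

/-!
# The Suzuki group is generated by two elements
-/

set_option autoImplicit false
set_option linter.unusedSimpArgs false
set_option linter.unusedVariables false

namespace Cfsg.Agent.Lib.SuzOv

open Matrix Cfsg
open scoped MatrixGroups Pointwise commutatorElement

variable {F : Type*} [Field F] {m : ℕ} [Fintype F] (S : SH F m)

include S

lemma exists_unit_ne_one : ∃ C : Fˣ, C ≠ 1 := by
  classical
  by_contra hcon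
  push_neg at hcon
  have h5 : Fintype.card Fˣ = 1 := by
    rw [Fintype.card_eq_one_iff]
    exact ⟨1, fun C => hcon C⟩
  rw [Fintype.card_units, S.hF] at h5
  have h6 : 2 ^ (2 * m + 1) ≥ 2 ^ 3 := Nat.pow_le_pow_right (by norm_num) (by have := S.hm; omega)
  omega

lemma tT_comm (a c x y : F) :
    tT S a c * tT S x y * (tT S a c)⁻¹ * (tT S x y)⁻¹ = tT S 0 (a ^ (2 ^ (m + 1)) * x + x ^ (2 ^ (m + 1)) * a) := by
  have := congrArg Subtype.val (uu_comm S a c x y)
  rw [commutatorElement_def] at this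
  exact this

lemma tT_mul_zero (a b y : F) : tT S a b * tT S 0 y = tT S a (b + y) := by
  have hS := S.sc
  rw [tT_mul]
  simp

/-- Two generators. -/
theorem two_generators : ∃ a b : ↥(Cfsg.Sz F m), Subgroup.closure ({a, b} : Set ↥(Cfsg.Sz F m)) = ⊤ := by
  classical
  have hS := S.sc
  have h2 := S.two
  obtain ⟨C, hC⟩ := IsCyclic.exists_generator (α := Fˣ)
  refine ⟨tH S C, tT S 1 0 * tW S, ?_⟩
  set X := Subgroup.closure ({tH S C, tT S 1 0 * tW S} : Set ↥(Cfsg.Sz F m)) with hX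
  have ha : tH S C ∈ X := Subgroup.subset_closure (by simp)
  have hb : tT S 1 0 * tW S ∈ X := Subgroup.subset_closure (by simp)
  -- the torus lies in X
  have hH : ∀ A : Fˣ, tH S A ∈ X := by
    intro A
    obtain ⟨j, rfl⟩ := hC A
    have : tH S (C ^ j) = (tH S C) ^ j := (tHh S).map_zpow C j
    rw [this]
    exact X.zpow_mem ha j
  have hWinv : (tW S)⁻¹ = tW S := inv_eq_of_mul_eq_one_left (tW_sq S)
  have hWH : ∀ A : Fˣ, tW S * tH S A * tW S = tH S A⁻¹ := fun A => Subtype.ext (W_H_W A)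
  have hinv : ∀ A : Fˣ, (tH S A)⁻¹ = tH S A⁻¹ := fun A => ((tHh S).map_inv A).symm
  -- a nonzero first coordinate
  obtain ⟨D, hD⟩ := exists_unit_ne_one S
  have hy : tH S D * (tT S 1 0 * tW S) * (tH S D)⁻¹ * (tT S 1 0 * tW S)⁻¹ * (tH S (D * D))⁻¹ ∈ X :=
    X.mul_mem (X.mul_mem (X.mul_mem (X.mul_mem (hH D) hb) (X.inv_mem (hH D))) (X.inv_mem hb)) (X.inv_mem (hH _))
  have hw : tW S * (tH S D)⁻¹ * (tW S)⁻¹ = tH S D := by
    rw [hWinv, hinv, hWH, inv_inv]
  have hHH : tH S (D * D) = tH S D * tH S D := tH_mul S D D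
  have hy' : tH S D * (tT S 1 0 * tW S) * (tH S D)⁻¹ * (tT S 1 0 * tW S)⁻¹ * (tH S (D * D))⁻¹ =
      (tH S D * tT S 1 0 * (tH S D)⁻¹) * (tH S (D * D) * (tT S 1 0)⁻¹ * (tH S (D * D))⁻¹) := by
    calc _ = tH S D * tT S 1 0 * (tW S * (tH S D)⁻¹ * (tW S)⁻¹) * (tT S 1 0)⁻¹ * (tH S (D * D))⁻¹ := by group
      _ = tH S D * tT S 1 0 * tH S D * (tT S 1 0)⁻¹ * (tH S (D * D))⁻¹ := by rw [hw]
      _ = _ := by
        rw [hHH]
        group
  rw [hy', tT_inv, tH_T_H, tH_T_H, tT_mul] at hy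
  have hD0 : (D : F) ≠ 0 := D.ne_zero
  have hDne : (D : F) ≠ 1 := fun h => hD (Units.ext h)
  have he : (D : F) * 1 + ((D * D : Fˣ) : F) * 1 ≠ 0 := by
    simp only [mul_one, Units.val_mul]
    intro h
    apply hDne
    have : (D : F) * ((D : F) - 1) = 0 := by linear_combination h - (D : F) * h2
    exact sub_eq_zero.1 ((mul_eq_zero.1 this).resolve_left hD0)
  obtain ⟨e, w₀, hy, he⟩ : ∃ e w₀ : F, tT S e w₀ ∈ X ∧ e ≠ 0 := ⟨_, _, hy, he⟩
  -- all first coordinates occur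
  have hV : ∀ x : F, x ≠ 0 → ∃ w : F, tT S x w ∈ X := by
    intro x hx
    have h3 := X.mul_mem (X.mul_mem (hH (Units.mk0 (x / e) (div_ne_zero hx he))) hy)
      (X.inv_mem (hH (Units.mk0 (x / e) (div_ne_zero hx he))))
    rw [tH_T_H] at h3
    have h4 : ((Units.mk0 (x / e) (div_ne_zero hx he) : Fˣ) : F) * e = x := by
      simp only [Units.val_mk0]
      field_simp
    rw [h4] at h3
    exact ⟨_, h3⟩
  -- the centre
  have hZ : ∀ b : F, tT S 0 b ∈ X := by
    intro b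
    by_cases hb : b = 0
    · subst hb
      rw [tT_zero]
      exact X.one_mem
    obtain ⟨t, ht⟩ := exists_s_ne S
    obtain ⟨c, hc⟩ := exists_pow_eq S (div_ne_zero hb ht)
    have hc0 : c ≠ 0 := by
      rintro rfl
      rw [zero_pow hS.pos, zero_mul] at hc
      exact (div_ne_zero hb ht) hc.symm
    have ht0 : t ≠ 0 := by
      rintro rfl
      rw [zero_pow hS.pos, add_zero] at ht
      exact ht rfl
    obtain ⟨w₁, hw₁⟩ := hV c hc0
    obtain ⟨w₂, hw₂⟩ := hV (c * t) (mul_ne_zero hc0 ht0)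
    have h3 := X.mul_mem (X.mul_mem (X.mul_mem hw₁ hw₂) (X.inv_mem hw₁)) (X.inv_mem hw₂)
    rw [tT_comm] at h3
    have h4 : c ^ (2 ^ (m + 1)) * (c * t) + (c * t) ^ (2 ^ (m + 1)) * c = b := by
      rw [mul_pow]
      calc c ^ (2 ^ (m + 1)) * (c * t) + c ^ (2 ^ (m + 1)) * t ^ (2 ^ (m + 1)) * c
          = (c ^ (2 ^ (m + 1)) * c) * (t ^ (2 ^ (m + 1)) + t) := by ring
        _ = b := by rw [hc]; field_simp
    rwa [h4] at h3
  have hT : ∀ a b : F, tT S a b ∈ X := by
    intro a b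
    by_cases ha : a = 0
    · subst ha
      exact hZ b
    · obtain ⟨w, hw'⟩ := hV a ha
      have h3 := X.mul_mem hw' (hZ (w + b))
      rw [tT_mul_zero] at h3
      have : w + (w + b) = b := by linear_combination w * h2
      rwa [this] at h3
  have hW : tW S ∈ X := by
    have h3 := X.mul_mem (X.inv_mem (hT 1 0)) hb
    rwa [inv_mul_cancel_left] at h3
  rw [eq_top_iff]
  intro g _
  rcases bruhat S g.1 g.2 with ⟨a, b, A, hg⟩ | ⟨a, b, a', b', A, hg⟩
  · have : g = tT S a b * tH S A := Subtype.ext hg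
    rw [this]
    exact X.mul_mem (hT a b) (hH A)
  · have : g = tT S a b * tW S * (tT S a' b' * tH S A) := Subtype.ext hg
    rw [this]
    exact X.mul_mem (X.mul_mem (hT a b) hW) (X.mul_mem (hT a' b') (hH A))

end Cfsg.Agent.Lib.SuzOv
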