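import Cfsg.Agent.Lib.SuzOv.Simple
import Mathlib

/-!
# The Suzuki group as a Zassenhaus group; the ovoid property
-/

set_option autoImplicit false
set_option linter.unusedSimpArgs false
set_option linter.unusedVariables false

namespace Cfsg.Agent.Lib.SuzOv

open Matrix Cfsg
open scoped MatrixGroups Pointwise

variable {F : Type*} [Field F] {m : ℕ} [Fintype F] (S : SH F m)

include S

/-- A torus element fixing a further point is trivial. -/
lemma torus_fix {A : Fˣ} {x y : F} (hxy : ¬ (x = 0 ∧ y = 0)) (h : tH S A • pt m x y = pt m x y) : A = 1 := by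
  rw [tH_pt] at h
  obtain ⟨h1, h3⟩ := pt_inj h
  apply Units.ext
  rw [Units.val_one]
  by_cases hx : x = 0
  · have hy : y ≠ 0 := fun hy => hxy ⟨hx, hy⟩
    apply root_one S
    rw [pow_succ] at h3
    exact mul_right_cancel₀ hy (by rw [h3, one_mul])
  · exact mul_right_cancel₀ hx (by rw [h1, one_mul])

/-- No non-identity element fixes three points. -/
theorem three_point (g : ↥(Cfsg.Sz F m)) {a b c : Projectivization F (Fin 4 → F)}
    (ha : a ∈ Cfsg.suzukiOvoid F m) (hb : b ∈ Cfsg.suzukiOvoid F m) (hc : c ∈ Cfsg.suzukiOvoid F m)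
    (hab : a ≠ b) (hbc : b ≠ c) (hac : a ≠ c) (h1 : g • a = a) (h2 : g • b = b) (h3 : g • c = c) : g = 1 := by
  obtain ⟨k, hk1, hk2⟩ := exists_to_base S ha hb hab
  have hfix : ∀ p : Projectivization F (Fin 4 → F), g • p = p → (k * g * k⁻¹) • (k • p) = k • p := by
    intro p hp
    rw [mul_smul, mul_smul, inv_smul_smul, hp]
  have e1 := hfix a h1
  have e2 := hfix b h2
  have e3 := hfix c h3
  rw [hk1] at e1
  rw [hk2] at e2
  obtain ⟨A, hA⟩ := stab_two' S _ e1 e2
  rcases (mem_ovoid_iff m _).1 (smul_mem_ovoid S k hc) with h | ⟨x, y, h⟩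
  · exfalso
    apply hac
    rw [← hk1] at h
    exact (smul_left_cancel k h).symm
  · rw [h, hA] at e3
    have hxy : ¬ (x = 0 ∧ y = 0) := by
      rintro ⟨rfl, rfl⟩
      apply hbc
      rw [← hk2] at h
      exact (smul_left_cancel k h).symm
    have hA1 := torus_fix S hxy e3
    rw [hA1] at hA
    have h5 : k * g * k⁻¹ = 1 := by rw [hA]; exact (tHh S).map_one
    have h6 : k * g = k := by
      calc k * g = (k * g * k⁻¹) * k := by group
        _ = k := by rw [h5, one_mul]
    exact mul_eq_left.1 h6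

/-- The Zassenhaus property. -/
theorem isZass : Cfsg.IsZassenhausGroup ↥(Cfsg.Sz F m) ↥(Cfsg.suzukiOvoid F m) := by
  classical
  refine ⟨⟨?_⟩, ?_, ?_, ?_, ?_⟩
  · intro g h hgh
    have : g⁻¹ * h = 1 := by
      apply faithful S
      intro p hp
      have := hgh ⟨p, hp⟩
      have h3 : g • p = h • p := congrArg Subtype.val this
      rw [mul_smul, ← h3, inv_smul_smul]
    exact (inv_mul_eq_one.1 this)
  · rw [MulAction.is_two_pretransitive_iff]
    rintro ⟨a, ha⟩ ⟨b, hb⟩ ⟨c, hc⟩ ⟨d, hd⟩ hab hcd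
    obtain ⟨g, h1, h3⟩ := two_trans S ha hb hc hd (fun h => hab (Subtype.ext h)) (fun h => hcd (Subtype.ext h))
    exact ⟨g, Subtype.ext h1, Subtype.ext h3⟩
  · rintro g ⟨a, ha⟩ ⟨b, hb⟩ ⟨c, hc⟩ hab hbc hac h1 h2 h3
    exact three_point S g ha hb hc (fun h => hab (Subtype.ext h)) (fun h => hbc (Subtype.ext h))
      (fun h => hac (Subtype.ext h)) (congrArg Subtype.val h1) (congrArg Subtype.val h2) (congrArg Subtype.val h3)
  · obtain ⟨C, hC⟩ : ∃ C : Fˣ, (C : F) ≠ 1 := by
      by_contra hcon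
      push_neg at hcon
      have h5 : Fintype.card Fˣ = 1 := by
        rw [Fintype.card_eq_one_iff]
        exact ⟨1, fun C => Units.ext (hcon C)⟩
      rw [Fintype.card_units, S.hF] at h5
      have h6 : 2 ^ (2 * m + 1) ≥ 2 ^ 3 := Nat.pow_le_pow_right (by norm_num) (by have := S.hm; omega)
      omega
    refine ⟨tH S C, ?_, ⟨pinf F, pinf_mem m⟩, ⟨pt m 0 0, pt_mem m 0 0⟩, ?_, ?_, ?_⟩
    · intro h
      have : H m C = H m 1 := by
        rw [H_one]
        exact congrArg Subtype.val h
      exact hC (by rw [H_inj S this]; rfl)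
    · intro h
      exact pt_ne_pinf m (0 : F) 0 (congrArg Subtype.val h).symm
    · exact Subtype.ext (tH_pinf S C)
    · apply Subtype.ext
      show tH S C • pt m (0 : F) 0 = pt m 0 0
      rw [tH_pt]
      simp
  · intro N hN htr
    haveI := isSimple S
    rcases hN.eq_bot_or_eq_top with rfl | rfl
    · exfalso
      obtain ⟨n, hn⟩ := htr.exists_smul_eq (⟨pinf F, pinf_mem m⟩ : ↥(Cfsg.suzukiOvoid F m)) ⟨pt m 0 0, pt_mem m 0 0⟩
      have h1 : (n : ↥(Cfsg.Sz F m)) = 1 := Subgroup.mem_bot.1 n.2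
      have h3 : ((n : ↥(Cfsg.Sz F m))) • pinf F = pt m (0 : F) 0 := congrArg Subtype.val hn
      rw [h1, one_smul] at h3
      exact pt_ne_pinf m (0 : F) 0 h3.symm
    · refine ⟨⟨pinf F, pinf_mem m⟩, ?_⟩
      intro hstab
      have h1 : (⟨tT S 1 0, trivial⟩ : ↥(⊤ : Subgroup ↥(Cfsg.Sz F m))) ∈ MulAction.stabilizer ↥(⊤ : Subgroup ↥(Cfsg.Sz F m)) (⟨pinf F, pinf_mem m⟩ : ↥(Cfsg.suzukiOvoid F m)) := by
        rw [MulAction.mem_stabilizer_iff]
        exact Subtype.ext (tT_pinf S 1 0)
      rw [hstab, Subgroup.mem_bot] at h1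
      have h3 : tT S (1 : F) 0 = 1 := congrArg Subtype.val h1
      rw [← tT_zero S] at h3
      exact one_ne_zero (T_inj S (congrArg Subtype.val h3)).1

/-- The ovoid property. -/
theorem ovoid_independent (p : Fin 3 ↪ Cfsg.suzukiOvoid F m) :
    Projectivization.Independent (fun i => (p i : Projectivization F (Fin 4 → F))) := by
  classical
  have hne : ∀ i j : Fin 3, i ≠ j → ((p i : Projectivization F (Fin 4 → F))) ≠ (p j : Projectivization F (Fin 4 → F)) := by
    intro i j hij h
    exact hij (p.injective (Subtype.ext h))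
  obtain ⟨k, hk1, hk2⟩ := exists_to_base S (p 0).2 (p 1).2 (hne 0 1 (by decide))
  rcases (mem_ovoid_iff m _).1 (smul_mem_ovoid S k (p 2).2) with h | ⟨x, y, h⟩
  · exfalso
    apply hne 0 2 (by decide)
    rw [← hk1] at h
    exact (smul_left_cancel k h).symm
  have hxy : ¬ (x = 0 ∧ y = 0) := by
    rintro ⟨rfl, rfl⟩
    apply hne 1 2 (by decide)
    rw [← hk2] at h
    exact (smul_left_cancel k h).symm
  let f : Fin 3 → (Fin 4 → F) := ![vinf, ov m 0 0, ov m x y]
  have hf : LinearIndependent F f := by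
    rw [Fintype.linearIndependent_iff]
    intro c hc
    rw [Fin.sum_univ_three] at hc
    have h0 := congrFun hc 0
    have h1 := congrFun hc 1
    have h2 := congrFun hc 2
    have h3 := congrFun hc 3
    simp [f, vinf, ov] at h0 h1 h2 h3
    have hc2 : c 2 = 0 := by
      by_contra hc2
      rcases h1 with h1 | h1
      · exact hc2 h1
      rcases h2 with h2 | h2
      · exact hc2 h2
      exact hxy ⟨h2, h1⟩
    have hc1 : c 1 = 0 := by
      simpa [hc2] using h3
    have hc0 : c 0 = 0 := by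
      rw [hc2] at h0
      simpa using h0
    intro i
    fin_cases i
    · exact hc0
    · exact hc1
    · exact hc2
  let L : (Fin 4 → F) →ₗ[F] (Fin 4 → F) :=
    { toFun := fun v => k⁻¹ • v
      map_add' := fun a b => smul_add _ a b
      map_smul' := fun c a => by
        simp only [RingHom.id_apply]
        exact smul_comm _ c a }
  have hL : LinearMap.ker L = ⊥ := by
    rw [LinearMap.ker_eq_bot]
    intro a b hab
    exact smul_left_cancel _ hab
  have hf' := hf.map' L hL
  have hne' : ∀ i, (L ∘ f) i ≠ 0 := fun i => hf'.ne_zero i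
  have hrep : ∀ i, (p i : Projectivization F (Fin 4 → F)) = Projectivization.mk F ((L ∘ f) i) (hne' i) := by
    have hmk : ∀ (v : Fin 4 → F) (hv : v ≠ 0) (hv' : k⁻¹ • v ≠ 0), Projectivization.mk F (k⁻¹ • v) hv' = k⁻¹ • Projectivization.mk F v hv := by
      intro v hv hv'
      exact (Projectivization.smul_mk _ hv).symm
    intro i
    fin_cases i
    · exact (eq_inv_smul_iff.2 hk1).trans (hmk vinf vinf_ne _).symm
    · exact (eq_inv_smul_iff.2 hk2).trans (hmk (ov m 0 0) (ov_ne m 0 0) _).symm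
    · exact (eq_inv_smul_iff.2 h).trans (hmk (ov m x y) (ov_ne m x y) _).symm
  have hfun : (fun i => (p i : Projectivization F (Fin 4 → F))) = fun i => Projectivization.mk F ((L ∘ f) i) (hne' i) :=
    funext hrep
  rw [hfun]
  exact Projectivization.Independent.mk _ _ hf'

end Cfsg.Agent.Lib.SuzOv
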